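import Mathlib
import Cfsg.Agent.S0700
import Cfsg.Agent.S0493
import Cfsg.Agent.S0494
import Cfsg.Agent.Lib.Helper69.APQ.Defs

/-!
# APQ (S4150) package [M6B]: a `2`-transitive group of degree `6` and order `≤ 60` is `A_5`

A minimal normal subgroup `N` is transitive on the six points.  By Burnside (`S0700`) it is either
regular of prime exponent - impossible, `6` is not a prime power - or simple; then `6 ∣ |N|`,
`N` is not cyclic, `|N| = 60` (`S0493`), `N = ⊤` and `S0494` applies.
-/

set_option autoImplicit false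

namespace Cfsg.Agent.Lib.Helper71.APQ

open Cfsg.Agent.Lib.Helper69.APQ Equiv

universe u

/-- A nontrivial finite group has a minimal normal subgroup. -/
theorem exists_min_normal_m6 {G : Type u} [Group G] [Finite G] [Nontrivial G] :
    ∃ N : Subgroup G, N.Normal ∧ N ≠ ⊥ ∧
      ∀ M : Subgroup G, M.Normal → M ≤ N → M = ⊥ ∨ M = N := by
  classical
  have hex : ∃ n : ℕ, ∃ N : Subgroup G, N.Normal ∧ N ≠ ⊥ ∧ Nat.card N = n :=
    ⟨_, ⊤, inferInstance, top_ne_bot, rfl⟩
  obtain ⟨N, hNn, hNb, hNc⟩ := Nat.find_spec hex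
  refine ⟨N, hNn, hNb, ?_⟩
  intro M hMn hMN
  by_cases hMb : M = ⊥
  · exact Or.inl hMb
  right
  have h1 : Nat.find hex ≤ Nat.card M := Nat.find_min' hex ⟨M, hMn, hMb, rfl⟩
  exact Subgroup.eq_of_le_of_card_ge hMN (hNc ▸ h1)

theorem pkgM6B : PkgM6B.{u} := by
  intro β _ _ H h6 h2t hle
  haveI : MulAction.IsPretransitive H β := MulAction.isPretransitive_of_is_two_pretransitive
  haveI hprim : MulAction.IsPreprimitive H β :=
    MulAction.isPreprimitive_of_is_two_pretransitive h2t
  haveI : Nontrivial β := by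
    rw [← Fintype.one_lt_card_iff_nontrivial, h6]
    norm_num
  haveI : Nontrivial H := by
    obtain ⟨a, b, hab⟩ := exists_pair_ne β
    obtain ⟨g, hg⟩ := MulAction.exists_smul_eq H a b
    refine ⟨⟨g, 1, ?_⟩⟩
    rintro rfl
    exact hab (by simpa using hg)
  obtain ⟨N, hNn, hNb, hmin⟩ := exists_min_normal_m6 (G := H)
  haveI := hNn
  haveI hNt : MulAction.IsPretransitive N β := by
    apply MulAction.IsQuasiPreprimitive.isPretransitive_of_normal (G := H)
    intro hfix
    apply hNb
    rw [eq_bot_iff]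
    intro n hn
    rw [Subgroup.mem_bot]
    apply Subtype.ext
    apply Equiv.Perm.ext
    intro b
    have hb : b ∈ MulAction.fixedPoints N β := by
      rw [hfix]
      exact Set.mem_univ b
    exact hb ⟨n, hn⟩
  have hcardβ : Nat.card β = 6 := by rw [Nat.card_eq_fintype_card, h6]
  obtain ⟨a⟩ : Nonempty β := inferInstance
  have h1 := Subgroup.card_mul_index (MulAction.stabilizer N a)
  rw [MulAction.index_stabilizer_of_transitive, hcardβ] at h1
  rcases Cfsg.Agent.S0700.result H h2t N hNb hmin with ⟨-, ⟨p, hp, hexp⟩, hstab⟩ | ⟨hsimple, -⟩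
  · exfalso
    rw [hstab a, Subgroup.card_bot, one_mul] at h1
    have hpg : IsPGroup p N := fun g =>
      ⟨1, by rw [pow_one]; exact Subtype.ext (hexp g g.2)⟩
    haveI : Fact p.Prime := ⟨hp⟩
    obtain ⟨n, hn⟩ := IsPGroup.iff_card.mp hpg
    rw [← h1] at hn
    have h2 : 2 ∣ p ^ n := ⟨3, by omega⟩
    have h3 : 3 ∣ p ^ n := ⟨2, by omega⟩
    have e2 := (Nat.prime_dvd_prime_iff_eq Nat.prime_two hp).mp (Nat.prime_two.dvd_of_dvd_pow h2)
    have e3 := (Nat.prime_dvd_prime_iff_eq Nat.prime_three hp).mp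
      (Nat.prime_three.dvd_of_dvd_pow h3)
    omega
  · haveI := hsimple
    have h6N : 6 ∣ Nat.card N := ⟨_, by rw [← h1, mul_comm]⟩
    have hncyc : ¬ IsCyclic N := by
      intro hc
      letI := IsCyclic.commGroup (α := N)
      have hpr := IsSimpleGroup.prime_card (α := N)
      have e2 := (Nat.prime_dvd_prime_iff_eq Nat.prime_two hpr).mp (dvd_trans ⟨3, rfl⟩ h6N)
      have e3 := (Nat.prime_dvd_prime_iff_eq Nat.prime_three hpr).mp (dvd_trans ⟨2, rfl⟩ h6N)
      omega
    have hNle : Nat.card N ≤ Nat.card H := Subgroup.card_le_card_group N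
    have h60 : Nat.card N = 60 := Cfsg.Agent.S0493.result hncyc (by omega)
    have hNtop : N = ⊤ := Subgroup.eq_top_of_card_eq N (by omega)
    obtain ⟨e⟩ := Cfsg.Agent.S0494.result (G := N) h60
    exact ⟨((MulEquiv.subgroupCongr hNtop).trans Subgroup.topEquiv).symm.trans e⟩

end Cfsg.Agent.Lib.Helper71.APQ
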